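import Cfsg.Agent.SchurMult.TwoGen
import Mathlib.Tactic.Ring
import Mathlib.GroupTheory.OrderOfElement
import Mathlib.RingTheory.Int.Basic
import Mathlib.Algebra.Ring.GeomSum

/-!
Bound on the kernel of a stem extension of a metacyclic group.
-/

set_option autoImplicit false

namespace CfsgLib.MetacyclicMult

theorem conj_pow_formula {Γ : Type*} [Group Γ] {a b z : Γ} (hz : ∀ x, x * z = z * x) {r : ℕ}
    (h : b * a * b⁻¹ = a ^ r * z) (k : ℕ) :
    b ^ k * a * (b ^ k)⁻¹ = a ^ (r ^ k) * z ^ (∑ i ∈ Finset.range k, r ^ i) := by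
  induction k with
  | zero => simp
  | succ k ih =>
    calc b ^ (k + 1) * a * (b ^ (k + 1))⁻¹ = b * (b ^ k * a * (b ^ k)⁻¹) * b⁻¹ := by group
      _ = (b * a ^ (r ^ k) * b⁻¹) * (b * z ^ (∑ i ∈ Finset.range k, r ^ i) * b⁻¹) := by rw [ih]; group
      _ = (a ^ r * z) ^ (r ^ k) * z ^ (∑ i ∈ Finset.range k, r ^ i) := by
        rw [← conj_pow, h, (Commute.pow_right (show Commute b z from hz b) _).eq, mul_inv_cancel_right]
      _ = _ := by
        rw [Commute.mul_pow (show Commute (a ^ r) z from hz _), ← pow_mul, mul_assoc, ← pow_add,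
          Finset.sum_range_succ, add_comm (∑ i ∈ Finset.range k, r ^ i), ← pow_succ']

/-- Every stem extension of the metacyclic group with parameters `m = e d`, `r - 1 = f d`,
`1 + r + ⋯ + r^(n-1) = e s`, `t = e l` has cyclic kernel killed by `d`, `s` and `l`. -/
theorem stem_bound {G : Type*} [Group G] {A B : G} (hgen : Subgroup.closure ({A, B} : Set G) = ⊤)
    {m n r e f d s l : ℕ} (hn : 0 < n) (hed : m = e * d) (hfd : r = f * d + 1)
    (hes : ∑ i ∈ Finset.range n, r ^ i = e * s) (hd : 0 < d) (hcop : Nat.Coprime e f)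
    (hA : ∀ k : ℤ, A ^ k = 1 ↔ (m : ℤ) ∣ k) (hB : B ^ n = A ^ (e * l)) (hconj : B * A * B⁻¹ = A ^ r)
    {Γ : Type*} [Group Γ] [Finite Γ] {σ : Γ →* G} (hσ : Cfsg.IsStemExtension σ) :
    ∃ w : Γ, w ∈ σ.ker ∧ σ.ker ≤ Subgroup.zpowers w ∧ w ^ (Nat.gcd l (Nat.gcd d s)) = 1 := by
  obtain ⟨a, ha⟩ := hσ.1 A
  obtain ⟨b, hb⟩ := hσ.1 B
  have hcen : ∀ u, σ u = 1 → ∀ x, x * u = u * x := fun u hu => Subgroup.mem_center_iff.1 (hσ.2.1 hu)
  set z := (a ^ r)⁻¹ * (b * a * b⁻¹) with hzdef
  have hz1 : σ z = 1 := by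
    rw [hzdef, map_mul, map_inv, map_pow, map_mul, map_mul, map_inv, ha, hb, hconj, inv_mul_cancel]
  have hz := hcen z hz1
  have hbab : b * a * b⁻¹ = a ^ r * z := by rw [hzdef, mul_inv_cancel_left]
  have hza : ∀ i : ℕ, Commute (a ^ i) z := fun i => hz _
  have hbpow : ∀ i : ℕ, b * a ^ i * b⁻¹ = a ^ (r * i) * z ^ i := fun i => by
    rw [← conj_pow, hbab, Commute.mul_pow (hza r), ← pow_mul]
  set c := a ^ (f * d) * z with hc
  set w := c ^ e with hw
  -- `a ^ m` is central
  have hAm : A ^ m = 1 := by rw [← zpow_natCast, hA]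
  have hu := hcen (a ^ m) (by rw [map_pow, ha, hAm])
  have hwd : w ^ d = 1 := by
    have h1 := hbpow m
    rw [(hu b), mul_inv_cancel_right] at h1
    have h2 : a ^ m * (a ^ (f * d * m) * z ^ m) = a ^ m * 1 := by
      rw [mul_one, ← mul_assoc, ← pow_add]
      conv_rhs => rw [h1]
      congr 2
      rw [hfd]; ring
    have h3 := mul_left_cancel h2
    rw [hw, ← pow_mul, ← hed, hc, Commute.mul_pow (hza _), ← pow_mul, h3]
  -- `b ^ n = a ^ t` up to a central element
  set v := (a ^ (e * l))⁻¹ * b ^ n with hvdef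
  have hv := hcen v (by rw [hvdef, map_mul, map_inv, map_pow, map_pow, ha, hb, hB, inv_mul_cancel])
  have hbn : b ^ n = a ^ (e * l) * v := by rw [hvdef, mul_inv_cancel_left]
  have hws : w ^ s = 1 := by
    have h1 := conj_pow_formula hz hbab n
    rw [hbn, mul_assoc (a ^ (e * l)) v a, ← hv a, ← mul_assoc, (Commute.pow_self a (e * l)).eq,
      mul_assoc a, mul_inv_cancel_right, hes] at h1
    have hr : r ^ n = f * d * (e * s) + 1 := by
      have hg := geom_sum_mul (r : ℤ) n
      have hsum : ((∑ i ∈ Finset.range n, r ^ i : ℕ) : ℤ) = ((e * s : ℕ) : ℤ) := by rw [hes]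
      push_cast at hsum
      have hr' : (r : ℤ) = f * d + 1 := by exact_mod_cast hfd
      have : ((r ^ n : ℕ) : ℤ) = ((f * d * (e * s) + 1 : ℕ) : ℤ) := by
        push_cast
        rw [hsum, hr'] at hg
        rw [hr']
        linarith
      exact_mod_cast this
    rw [hr, pow_succ', mul_assoc] at h1
    have h3 : a ^ (f * d * (e * s)) * z ^ (e * s) = 1 := mul_eq_left.1 h1.symm
    rw [hw, ← pow_mul, hc, Commute.mul_pow (hza _), ← pow_mul, h3]
  have hwl : w ^ l = 1 := by
    have h0 : b * b ^ n * b⁻¹ = b ^ n := by group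
    rw [hbn] at h0
    have h1 : b * a ^ (e * l) * b⁻¹ = a ^ (e * l) := by
      have : b * (a ^ (e * l) * v) * b⁻¹ = b * a ^ (e * l) * b⁻¹ * v := by
        rw [← mul_assoc, mul_assoc (b * a ^ (e * l)) v, ← hv b⁻¹, ← mul_assoc]
      rw [this] at h0
      exact mul_right_cancel h0
    rw [hbpow, show r * (e * l) = e * l + f * d * (e * l) by rw [hfd]; ring, pow_add, mul_assoc] at h1
    have h3 := mul_eq_left.1 h1
    rw [hw, ← pow_mul, hc, Commute.mul_pow (hza _), ← pow_mul, h3]
  have hσc : σ c = A ^ (f * d) := by rw [hc, map_mul, map_pow, ha, hz1, mul_one]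
  refine ⟨w, ?_, ?_, pow_gcd_eq_one.2 ⟨hwl, pow_gcd_eq_one.2 ⟨hwd, hws⟩⟩⟩
  · rw [MonoidHom.mem_ker, hw, map_pow, hσc, ← pow_mul, ← zpow_natCast, hA, hed]
    push_cast
    exact ⟨f, by ring⟩
  · have hcd : c = b * a * b⁻¹ * a⁻¹ := by
      calc c = a ^ (f * d) * z := hc
        _ = a ^ (f * d) * (a * z) * a⁻¹ := by rw [hz a]; group
        _ = a ^ r * z * a⁻¹ := by rw [hfd, pow_succ, ← mul_assoc]
        _ = _ := by rw [hbab]
    have hcr : ∀ i : ℕ, b ^ i * c * (b ^ i)⁻¹ = c ^ (r ^ i) := by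
      intro i
      induction i with
      | zero => simp
      | succ i ih =>
        calc b ^ (i + 1) * c * (b ^ (i + 1))⁻¹ = b * (b ^ i * c * (b ^ i)⁻¹) * b⁻¹ := by group
          _ = (b * c * b⁻¹) ^ (r ^ i) := by rw [ih, conj_pow]
          _ = c ^ (r ^ (i + 1)) := by
            have : b * c * b⁻¹ = c ^ r := by
              calc b * c * b⁻¹ = (b * a ^ (f * d) * b⁻¹) * (b * z * b⁻¹) := by rw [hc]; group
                _ = a ^ (r * (f * d)) * z ^ (f * d) * z := by rw [hbpow, hz b, mul_inv_cancel_right]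
                _ = c ^ r := by
                  rw [hc, Commute.mul_pow (hza _), ← pow_mul, mul_assoc, ← pow_succ, ← hfd, mul_comm r]
            rw [this, ← pow_mul, pow_succ']
    have hgen' : Subgroup.closure ({σ a, σ b} : Set G) = ⊤ := by rw [ha, hb]; exact hgen
    have hle := hσ.2.2.trans (CfsgLib.SchurMult.commutator_le_zpowers_of_two_gen hσ.2.1 hgen' hcd
      (by
        have : a * c * a⁻¹ = c := by
          rw [hc, ← mul_assoc, (Commute.self_pow a (f * d)).eq, mul_assoc (a ^ (f * d)), hz a, ← mul_assoc,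
            mul_inv_cancel_right]
        rw [this]; exact Subgroup.mem_zpowers c)
      (by
        have : a⁻¹ * c * a = c := by
          rw [hc, ← mul_assoc, ((Commute.self_pow a (f * d)).inv_left).eq, mul_assoc (a ^ (f * d) * a⁻¹),
            ← hz a, ← mul_assoc, inv_mul_cancel_right]
        rw [this]; exact Subgroup.mem_zpowers c)
      (by
        have := hcr 1
        rw [pow_one] at this
        rw [this]; exact Subgroup.pow_mem _ (Subgroup.mem_zpowers c) _)
      (by
        have h1 := orderOf_pos b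
        have hinv : b⁻¹ = b ^ (orderOf b - 1) := by
          rw [inv_eq_iff_mul_eq_one, ← pow_succ', Nat.sub_add_cancel h1, pow_orderOf_eq_one]
        have := hcr (orderOf b - 1)
        rw [← hinv, inv_inv] at this
        rw [this]; exact Subgroup.pow_mem _ (Subgroup.mem_zpowers c) _))
    intro x hx
    obtain ⟨k, rfl⟩ := Subgroup.mem_zpowers_iff.1 (hle hx)
    rw [MonoidHom.mem_ker, map_zpow, hσc, ← zpow_natCast, ← zpow_mul, hA, hed] at hx
    have hek : (e : ℤ) ∣ k := by
      push_cast at hx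
      obtain ⟨q, hq⟩ := hx
      have hd' : (d : ℤ) ≠ 0 := by exact_mod_cast hd.ne'
      have : (e : ℤ) ∣ f * k := ⟨q, mul_left_cancel₀ hd' (by linarith)⟩
      exact (Int.isCoprime_iff_nat_coprime.2 (by simpa using hcop)).dvd_of_dvd_mul_left this
    obtain ⟨q, rfl⟩ := hek
    rw [zpow_mul, zpow_natCast]
    exact ⟨q, rfl⟩

end CfsgLib.MetacyclicMult
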