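import Mathlib.GroupTheory.SemidirectProduct
import Mathlib.GroupTheory.Commutator.Basic
import Mathlib.GroupTheory.QuotientGroup.Defs
import Mathlib.Data.ZMod.Basic
import Mathlib.Algebra.Ring.GeomSum
import Mathlib.Tactic.LinearCombination
import Mathlib.Tactic.Ring
import Mathlib.Tactic.Linarith
import Mathlib.GroupTheory.Abelianization.Defs

/-!
A central extension of a metacyclic group: generators `a, b` and a central `z` of order `g`,
`a ^ m = z ^ y`, `b a b⁻¹ = a ^ r z ^ x`, `b ^ n = a ^ t`.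
-/

set_option autoImplicit false

namespace CfsgLib.MetacyclicMult

/-- The arithmetic data of the extension. -/
structure Data where
  m : ℕ
  n : ℕ
  r : ℕ
  t : ℕ
  g : ℕ
  x : ZMod g
  y : ZMod g
  hm : 0 < m
  hn : 0 < n
  hg : 0 < g
  hstable : (x * m + (r : ZMod g) * y : ZMod g) = y
  hpow : ∃ R : ℤ, (r : ℤ) ^ n - 1 = m * R ∧ (R : ZMod g) * y + x * (∑ i ∈ Finset.range n, (r : ZMod g) ^ i) = 0
  hfix : ∃ T : ℤ, ((r : ℤ) - 1) * t = m * T ∧ (T : ZMod g) * y + x * t = 0

variable (D : Data)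

/-- The relation lattice of the abelian normal subgroup. -/
def rel : AddSubgroup (ℤ × ZMod D.g) := AddSubgroup.zmultiples ((D.m : ℤ), -D.y)

/-- The abelian normal subgroup. -/
abbrev Ab : Type := (ℤ × ZMod D.g) ⧸ rel D

/-- The class of a pair. -/
def cls (i : ℤ) (c : ZMod D.g) : Ab D := QuotientAddGroup.mk (i, c)

theorem cls_eq_iff {i j : ℤ} {c c' : ZMod D.g} :
    cls D i c = cls D j c' ↔ ∃ k : ℤ, j - i = k * D.m ∧ c' - c = -((k : ZMod D.g) * D.y) := by
  rw [cls, cls, QuotientAddGroup.eq, rel, AddSubgroup.mem_zmultiples_iff]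
  constructor
  · rintro ⟨k, hk⟩
    refine ⟨k, ?_, ?_⟩
    · have := congrArg Prod.fst hk
      simp at this
      linarith
    · have := congrArg Prod.snd hk
      simp at this
      linear_combination -this
  · rintro ⟨k, h1, h2⟩
    refine ⟨k, Prod.ext ?_ ?_⟩
    · simp only [Prod.smul_fst, Prod.fst_add, Prod.fst_neg, smul_eq_mul]
      linarith
    · rw [Prod.smul_snd]; simp only [Prod.snd_add, Prod.snd_neg, zsmul_eq_mul]
      linear_combination -h2

theorem cls_surj (w : Ab D) : ∃ i c, cls D i c = w := by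
  induction w using QuotientAddGroup.induction_on with
  | _ p => exact ⟨p.1, p.2, rfl⟩

theorem cls_add (i j : ℤ) (c c' : ZMod D.g) : cls D i c + cls D j c' = cls D (i + j) (c + c') := rfl

theorem cls_zero : cls D 0 0 = 0 := rfl

/-- The twisting endomorphism. -/
noncomputable def tw : Ab D →+ Ab D :=
  QuotientAddGroup.map _ _
    { toFun := fun p : ℤ × ZMod D.g => ((D.r : ℤ) * p.1, p.2 + D.x * p.1)
      map_zero' := by simp
      map_add' := fun p q => by ext <;> simp <;> ring }
    (by
      rw [rel, AddSubgroup.zmultiples_le, AddSubgroup.mem_comap, AddSubgroup.mem_zmultiples_iff]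
      refine ⟨(D.r : ℤ), Prod.ext ?_ ?_⟩
      · simp
      · rw [Prod.smul_snd]; simp only [zsmul_eq_mul, Int.cast_natCast, AddMonoidHom.coe_mk, ZeroHom.coe_mk]
        linear_combination -D.hstable)

theorem tw_cls (i : ℤ) (c : ZMod D.g) : tw D (cls D i c) = cls D (D.r * i) (c + D.x * i) := by
  rw [tw, cls, cls, QuotientAddGroup.map_mk]; rfl

theorem tw_iterate (k : ℕ) (i : ℤ) (c : ZMod D.g) :
    (tw D)^[k] (cls D i c) =
      cls D ((D.r : ℤ) ^ k * i) (c + D.x * (∑ j ∈ Finset.range k, (D.r : ZMod D.g) ^ j) * i) := by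
  induction k with
  | zero => simp
  | succ k ih =>
    rw [Function.iterate_succ_apply', ih, tw_cls, Finset.sum_range_succ]
    congr 1
    · ring
    · push_cast; ring

theorem tw_iterate_n (w : Ab D) : (tw D)^[D.n] w = w := by
  obtain ⟨i, c, rfl⟩ := cls_surj D w
  obtain ⟨R, hR, hR'⟩ := D.hpow
  rw [tw_iterate, cls_eq_iff]
  refine ⟨-(R * i), ?_, ?_⟩
  · linear_combination (-i) * hR
  · push_cast
    linear_combination (-(i : ZMod D.g)) * hR'

theorem tw_bijective : Function.Bijective (tw D) := by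
  obtain ⟨k, hk⟩ : ∃ k, D.n = k + 1 := ⟨D.n - 1, by have := D.hn; omega⟩
  refine ⟨fun u v h => ?_, fun w => ⟨(tw D)^[k] w, ?_⟩⟩
  · rw [← tw_iterate_n D u, ← tw_iterate_n D v, hk, Function.iterate_succ_apply, Function.iterate_succ_apply, h]
  · rw [← Function.iterate_succ_apply' (f := tw D)]
    have := tw_iterate_n D w
    rwa [hk] at this

/-- The twisting automorphism. -/
noncomputable def twAut : MulAut (Multiplicative (Ab D)) :=
  AddEquiv.toMultiplicative (AddEquiv.ofBijective (tw D) (tw_bijective D))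

theorem twAut_apply (w : Multiplicative (Ab D)) :
    twAut D w = Multiplicative.ofAdd (tw D w.toAdd) := rfl

theorem twAut_pow_apply (k : ℕ) (w : Multiplicative (Ab D)) :
    (twAut D ^ k) w = Multiplicative.ofAdd ((tw D)^[k] w.toAdd) := by
  induction k with
  | zero => rfl
  | succ k ih =>
    rw [pow_succ', MulAut.mul_apply, ih, twAut_apply, toAdd_ofAdd, Function.iterate_succ_apply']

/-- The semidirect product. -/
abbrev Semi : Type := Multiplicative (Ab D) ⋊[zpowersHom (MulAut (Multiplicative (Ab D))) (twAut D)] Multiplicative ℤ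

theorem inr_conj (k : ℕ) (w : Multiplicative (Ab D)) :
    (SemidirectProduct.inr (Multiplicative.ofAdd (k : ℤ)) : Semi D) * SemidirectProduct.inl w *
      (SemidirectProduct.inr (Multiplicative.ofAdd (k : ℤ)))⁻¹ =
      SemidirectProduct.inl (Multiplicative.ofAdd ((tw D)^[k] w.toAdd)) := by
  rw [← map_inv, ← SemidirectProduct.inl_aut, zpowersHom_apply, toAdd_ofAdd, zpow_natCast, twAut_pow_apply]

/-- The central element identifying `b ^ n` with `a ^ t`. -/
noncomputable def relElt : Semi D :=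
  SemidirectProduct.inl (Multiplicative.ofAdd (cls D (-(D.t : ℤ)) 0)) *
    SemidirectProduct.inr (Multiplicative.ofAdd (D.n : ℤ))

theorem relElt_mem_center : relElt D ∈ Subgroup.center (Semi D) := by
  have hA : ∀ w, relElt D * SemidirectProduct.inl w = SemidirectProduct.inl w * relElt D := by
    intro w
    have h := inr_conj D D.n w
    rw [tw_iterate_n, ofAdd_toAdd] at h
    rw [relElt, mul_assoc, mul_inv_eq_iff_eq_mul.1 h, ← mul_assoc, ← mul_assoc, ← map_mul, ← map_mul,
      mul_comm w]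
  have hB : relElt D * SemidirectProduct.inr (Multiplicative.ofAdd (1 : ℤ)) =
      SemidirectProduct.inr (Multiplicative.ofAdd (1 : ℤ)) * relElt D := by
    have h := inr_conj D 1 (Multiplicative.ofAdd (cls D (-(D.t : ℤ)) 0))
    have hfix : tw D (cls D (-(D.t : ℤ)) 0) = cls D (-(D.t : ℤ)) 0 := by
      obtain ⟨T, hT, hT'⟩ := D.hfix
      rw [tw_cls, cls_eq_iff]
      refine ⟨T, ?_, ?_⟩
      · linear_combination hT
      · push_cast; linear_combination hT'
    rw [Function.iterate_one, toAdd_ofAdd, hfix, Nat.cast_one] at h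
    have h' := mul_inv_eq_iff_eq_mul.1 h
    rw [relElt, mul_assoc, ← map_mul, mul_comm (Multiplicative.ofAdd (D.n : ℤ)), map_mul, ← mul_assoc,
      ← mul_assoc, ← h']
  rw [Subgroup.mem_center_iff]
  intro u
  rw [← SemidirectProduct.inl_left_mul_inr_right u]
  have hr : SemidirectProduct.inr u.right ∈ Subgroup.centralizer ({relElt D} : Set (Semi D)) := by
    have e : u.right = Multiplicative.ofAdd (1 : ℤ) ^ u.right.toAdd := by
      rw [← ofAdd_zsmul, smul_eq_mul, mul_one, ofAdd_toAdd]
    rw [e, map_zpow]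
    exact Subgroup.zpow_mem _ (Subgroup.mem_centralizer_singleton_iff.2 hB.symm) _
  rw [mul_assoc, Subgroup.mem_centralizer_singleton_iff.1 hr, ← mul_assoc, ← hA, mul_assoc]

/-- The subgroup factored out. -/
noncomputable def relGrp : Subgroup (Semi D) := Subgroup.zpowers (relElt D)

instance relGrp_normal : (relGrp D).Normal := by
  refine ⟨fun u hu g => ?_⟩
  have hc : u ∈ Subgroup.center (Semi D) := (Subgroup.zpowers_le.2 (relElt_mem_center D)) hu
  rw [Subgroup.mem_center_iff.1 hc g, mul_inv_cancel_right]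
  exact hu

/-- The extension. -/
abbrev Ext : Type := Semi D ⧸ relGrp D

/-- The element over `(i, c) ∈ A`. -/
noncomputable def inA (i : ℤ) (c : ZMod D.g) : Ext D :=
  QuotientGroup.mk (SemidirectProduct.inl (Multiplicative.ofAdd (cls D i c)))

/-- The generator `b`. -/
noncomputable def genB : Ext D := QuotientGroup.mk (SemidirectProduct.inr (Multiplicative.ofAdd (1 : ℤ)))

theorem inA_mul (i j : ℤ) (c c' : ZMod D.g) : inA D i c * inA D j c' = inA D (i + j) (c + c') := by
  rw [inA, inA, ← QuotientGroup.mk_mul, ← map_mul, ← ofAdd_add, cls_add]; rfl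

theorem inA_zero : inA D 0 0 = 1 := by
  rw [inA, cls_zero, ofAdd_zero, map_one, QuotientGroup.mk_one]

theorem inA_pow (i : ℤ) (k : ℕ) : inA D i 0 ^ k = inA D (k * i) 0 := by
  induction k with
  | zero => rw [pow_zero, ← inA_zero]; simp
  | succ k ih => rw [pow_succ, ih, inA_mul, add_zero]; congr 1; push_cast; ring

theorem inA_natPow (k : ℕ) : inA D 1 0 ^ k = inA D k 0 := by
  rw [inA_pow, mul_one]

theorem genB_conj (i : ℤ) (c : ZMod D.g) :
    genB D * inA D i c * (genB D)⁻¹ = inA D (D.r * i) (c + D.x * i) := by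
  have h := inr_conj D 1 (Multiplicative.ofAdd (cls D i c))
  rw [Function.iterate_one, toAdd_ofAdd, tw_cls, Nat.cast_one] at h
  rw [genB, inA, inA, ← QuotientGroup.mk_inv, ← QuotientGroup.mk_mul, ← QuotientGroup.mk_mul, h]

theorem genB_pow : genB D ^ D.n = inA D D.t 0 := by
  rw [genB, inA, ← QuotientGroup.mk_pow, ← map_pow, ← ofAdd_nsmul, nsmul_one, eq_comm, QuotientGroup.eq]
  refine ⟨1, ?_⟩
  simp only [zpow_one, relElt]
  rw [← map_inv, ← ofAdd_neg]
  congr 3
  rw [eq_neg_iff_add_eq_zero, cls_add, add_zero, neg_add_cancel, cls_zero]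

theorem inA_inj_zero {i : ℤ} {c : ZMod D.g} (h : inA D i c = 1) : cls D i c = 0 := by
  rw [inA, QuotientGroup.eq_one_iff] at h
  obtain ⟨k, hk⟩ := h
  simp only at hk
  have h2 := congrArg (SemidirectProduct.rightHom) hk
  rw [map_zpow, SemidirectProduct.rightHom_inl, relElt, map_mul, SemidirectProduct.rightHom_inl,
    SemidirectProduct.rightHom_inr, one_mul, ← ofAdd_zsmul, ← ofAdd_zero,
    Multiplicative.ofAdd.injective.eq_iff, smul_eq_mul, mul_eq_zero] at h2
  have hk0 : k = 0 := h2.resolve_right (by exact_mod_cast D.hn.ne')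
  rw [hk0, zpow_zero] at hk
  have := SemidirectProduct.inl_injective (hk.symm.trans (map_one SemidirectProduct.inl).symm)
  exact Multiplicative.ofAdd.injective this

theorem exists_rep (u : Ext D) : ∃ (i : ℤ) (c : ZMod D.g) (j : ℤ), u = inA D i c * genB D ^ j := by
  induction u using QuotientGroup.induction_on with
  | _ u =>
    obtain ⟨i, c, hic⟩ := cls_surj D u.left.toAdd
    refine ⟨i, c, u.right.toAdd, ?_⟩
    rw [inA, genB, ← QuotientGroup.mk_zpow, ← QuotientGroup.mk_mul, hic, ofAdd_toAdd, ← map_zpow,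
      ← ofAdd_zsmul, smul_eq_mul, mul_one, ofAdd_toAdd, SemidirectProduct.inl_left_mul_inr_right]

instance ext_finite : Finite (Ext D) := by
  haveI : NeZero D.g := ⟨D.hg.ne'⟩
  haveI : NeZero D.m := ⟨D.hm.ne'⟩
  haveI : NeZero D.n := ⟨D.hn.ne'⟩
  refine Finite.of_surjective
    (fun p : Fin D.m × ZMod D.g × Fin D.n => inA D (p.1 : ℤ) p.2.1 * genB D ^ (p.2.2 : ℕ)) fun u => ?_
  obtain ⟨i, c, j, rfl⟩ := exists_rep D u
  -- reduce `j`
  have hj : genB D ^ j = inA D ((j / D.n) * D.t) 0 * genB D ^ (j % D.n).toNat := by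
    have hzp : ∀ q : ℤ, (genB D ^ D.n) ^ q = inA D (q * D.t) 0 := by
      intro q
      rw [genB_pow]
      let ψ : Multiplicative ℤ →* Ext D :=
        { toFun := fun q => inA D (q.toAdd * D.t) 0
          map_one' := by simpa using inA_zero D
          map_mul' := fun a b => by rw [inA_mul, add_zero, ← add_mul]; rfl }
      have := (map_zpow ψ (Multiplicative.ofAdd 1) q).symm
      simpa [ψ, ← ofAdd_zsmul] using this
    conv_lhs => rw [← Int.mul_ediv_add_emod j D.n]
    rw [zpow_add, zpow_mul, zpow_natCast, hzp, ← zpow_natCast,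
      Int.toNat_of_nonneg (Int.emod_nonneg _ (by exact_mod_cast D.hn.ne'))]
  rw [hj, ← mul_assoc, inA_mul, add_zero]
  set i' := i + j / D.n * D.t
  refine ⟨(⟨(i' % D.m).toNat, ?_⟩, c + ((i' / D.m : ℤ) : ZMod D.g) * D.y, ⟨(j % D.n).toNat, ?_⟩), ?_⟩
  · have := Int.emod_lt_of_pos i' (show (0 : ℤ) < D.m by exact_mod_cast D.hm)
    have := D.hm
    omega
  · have := Int.emod_lt_of_pos j (show (0 : ℤ) < D.n by exact_mod_cast D.hn)
    have := D.hn
    omega
  · simp only
    rw [Int.toNat_of_nonneg (Int.emod_nonneg _ (by exact_mod_cast D.hm.ne'))]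
    congr 1
    rw [inA, inA]
    congr 3
    rw [cls_eq_iff]
    refine ⟨i' / D.m, ?_, by ring⟩
    have := Int.mul_ediv_add_emod i' D.m
    linarith

end CfsgLib.MetacyclicMult
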